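import Cfsg.Agent.Lib.Schur.Cover.G23k3Chain
import Cfsg.Agent.Lib.G23.Main

/-!
# A stem extension of `G₂(3)` with kernel of order 3

The threefold cover acts monomially on the 351 points of a `G₂(3)`-set (cosets of `U₃(3):2`, i.e.
non-singular points of the 7-dimensional module), i.e. on `3 * 351` points, and on 728 further points
as `G₂(3)` does.
-/

set_option autoImplicit false
set_option maxRecDepth 100000

namespace Cfsg.Agent.Lib.Schur.Cover.G23k3

open Cfsg
open _root_.Cfsg.Agent.Lib.PermComp
open _root_.Cfsg.Agent.Lib.PermComp.Core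
open Cfsg.Agent.Lib.Schur.Cover.G23k3Data Cfsg.Agent.Lib.Schur.CoverCert Cfsg.Agent.Lib.Schur.CoverC
open Cfsg.Agent.Lib.G23.Data Cfsg.Agent.Lib.G23.Main

theorem gens_ok : allL (Cfsg.Agent.Lib.Schur.CoverH.blockOK 1053 728 c_w c_mask g_w g_mask) c_gens = true := by
  decide +kernel

theorem base_eq : c_gens.map (·.2.2) = g_T := by
  decide +kernel

theorem hm_ok : c_mask = 2 ^ c_w - 1 := by
  decide +kernel

theorem hid_b : allL (fun i => Nat.beq (app c_w c_mask c_idc i) i) (List.range (728 + 1053)) = true := by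
  decide +kernel

theorem hid_ok : ∀ i < 728 + 1053, app c_w c_mask c_idc i = i := fun i hi =>
  Nat.eq_of_beq_eq_true ((allL_eq_true _ _).1 hid_b i (List.mem_range.2 hi))

theorem slp_ok : slpCheck (728 + 1053) c_w c_mask c_idc (c_u :: c_v :: topGens (c_levels.map CLev.lev)) c_prog0
    (c_gens.map (·.1)).reverse (c_gens.map (·.1)).length = true := by
  decide +kernel

theorem twits_ok : gensOK c_w c_mask c_L c_maskL c_z c_P c_idc (c_levels.map CLev.lev) (c_gens.map (·.1)) c_twits = true := by
  decide +kernel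

theorem sizes_ok : sizes c_levels = 4245696 := by
  decide +kernel

theorem z_ok : goodPair (728 + 1053) c_w c_mask c_z c_zd = true ∧
    allL (fun b => Nat.beq (app c_w c_mask c_z b) b) (List.range 728) = true ∧
    allL (fun t : ℕ × ℕ × ℕ => Nat.beq (comp (728 + 1053) c_w c_mask c_z t.1)
      (comp (728 + 1053) c_w c_mask t.1 c_z)) c_gens = true ∧
    Nat.beq (powC (728 + 1053) c_w c_mask c_idc c_z 3) c_idc = true ∧
    Nat.beq (app c_w c_mask c_z 728) 728 = false ∧
    Nat.beq (comp (728 + 1053) c_w c_mask c_u c_v)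
      (comp (728 + 1053) c_w c_mask c_z (comp (728 + 1053) c_w c_mask c_v c_u)) = true := by
  decide +kernel

theorem P_eq : c_P = 0 :: 1 :: 2 :: (List.range 351).map (fun x => 728 + 3 * x) := by
  decide +kernel

theorem base_P : ∀ x ∈ g_levels.map Core.Lev.base, x ∈ c_P := by
  decide +kernel

theorem cov_b : allL (fun i => Nat.beq (CoverC.iterZ c_w c_mask c_z (i % 3) (728 + 3 * (i / 3))) (728 + i))
    (List.range 1053) = true := by
  decide +kernel

/-- The stem extension. -/
theorem exists_stem : ∃ (Γ : Type) (_ : Group Γ) (_ : Finite Γ) (σ : Γ →* Hnew),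
    IsStemExtension σ ∧ Nat.card σ.ker = 3 := by
  have h := CoverC.exists_stem_of_chain (N := 1053) (m := 728) (w := c_w)
    (mask := c_mask) (L := c_L) (maskL := c_maskL) (idc := c_idc) (w' := g_w) (mask' := g_mask)
    (β := Fin g_n) e0 (k := 3) Nat.prime_three (gens := c_gens) (prog := c_prog0) (ls := c_levels)
    (zc := c_z) (zd := c_zd) (uc := c_u) (vc := c_v) (p := 728) (Pts := c_P) (twits := c_twits)
    hm_ok hid_ok gens_ok slp_ok G23k3Chain.chain_ok twits_ok
    (by
      rw [base_eq, sizes_ok]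
      exact card_Hnew.symm)
    z_ok.1 z_ok.2.1 z_ok.2.2.1 z_ok.2.2.2.1 (by norm_num) z_ok.2.2.2.2.1 z_ok.2.2.2.2.2
    (by
      rw [base_eq]
      intro g hg hfix
      obtain ⟨hm, hid', -, hsem, hH, -⟩ := main_H
      have hg' : g ∈ Core.H g_w g_mask e0 (Core.topGens g_levels) := by
        rw [← hH]; exact hg
      exact eq_one_of_fix_base g_levels hsem g hg' (fun a ha => hfix a (base_P _ ha)))
    (by
      intro i hi
      refine ⟨728 + 3 * (i / 3), ?_, by omega, i % 3, ?_⟩
      · rw [P_eq]
        refine List.mem_cons_of_mem _ (List.mem_cons_of_mem _ (List.mem_cons_of_mem _ ?_))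
        exact List.mem_map.2 ⟨i / 3, List.mem_range.2 (by omega), rfl⟩
      · exact Nat.eq_of_beq_eq_true ((allL_eq_true _ _).1 cov_b i (List.mem_range.2 hi)))
  rw [base_eq] at h
  exact h

end Cfsg.Agent.Lib.Schur.Cover.G23k3
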