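import Cfsg.Agent.Lib.Schur.Cover.O73k3.Chk0
import Cfsg.Agent.Lib.Schur.Cover.O73k3.Chk1
import Cfsg.Agent.Lib.Schur.Cover.O73k3.Chk2
import Cfsg.Agent.Lib.TC.D.Fi22H.Main
import Cfsg.Agent.Lib.Schur.CoverP2

/-!
# A stem extension of the orthogonal group with kernel of order 3

Monomial tables on 3159 points.
-/

set_option autoImplicit false
set_option maxRecDepth 100000

namespace Cfsg.Agent.Lib.Schur.Cover.O73k3

open Cfsg Cfsg.Agent.Lib.Schur.CoverP Cfsg.Agent.Lib.PermComp.Kron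
open Cfsg.Agent.Lib.TC.D.Fi22H.Ok
open Cfsg.Agent.Lib.TC.D.Fi22Chain.S1_Tab (rels')

theorem hcheck : ∀ x < 3159, chkAt 3 3159 8 Kp.inv tb RJ x = true := by
  intro x hx
  refine forall_of_chunks_rem (c := 12) (s := 250) (r := 159) (by norm_num) ?_ ck12 (by norm_num) x hx
  intro i hi
  interval_cases i
  · exact ck0
  · exact ck1
  · exact ck2
  · exact ck3
  · exact ck4
  · exact ck5
  · exact ck6
  · exact ck7
  · exact ck8
  · exact ck9
  · exact ck10
  · exact ck11

/-- The stem extension. -/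
theorem exists_stem : ∃ (Γ : Type) (_ : Group Γ) (_ : Finite Γ) (σ : Γ →* PresentedGroup Rp),
    IsStemExtension σ ∧ Nat.card σ.ker = 3 := by
  have : NeZero 3 := ⟨by norm_num⟩
  exact exists_stem_of_tables (M := 3159) (k := 3) (K := Kp) (rels := rels') hv
    (Cfsg.Agent.Lib.TC.SubPres.hR 8 rels' hk) Cfsg.Agent.Lib.TC.D.Fi22H.Main.simple_card.1 (by norm_num) (by norm_num)
    tb RJ rowsC hcheck hk
    (fun l hl => rj_of_any ((by decide +kernel : ∀ l ∈ rels', RJ.any (fun t => t.1 == l) = true) l hl))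
    (fun c hc => rj_of_any ((by decide +kernel : ∀ c < Kp.k, RJ.any (fun t => t.1 == [c, Kp.inv c]) = true) c hc))
    (by decide +kernel) (by decide +kernel) (by decide +kernel) (by decide +kernel)

end Cfsg.Agent.Lib.Schur.Cover.O73k3
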