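import Cfsg.Agent.Lib.Schur.Cover.SuzP.Chk0
import Cfsg.Agent.Lib.Schur.Cover.SuzP.Chk1
import Cfsg.Agent.Lib.Schur.Cover.SuzP.Chk2
import Cfsg.Agent.Lib.Schur.Cover.SuzP.Chk3
import Cfsg.Agent.Lib.TC.D.SuzChain.Main
import Cfsg.Agent.Lib.Schur.CoverP2

/-!
# A stem extension of `Suz` with kernel of order 6

The sixfold cover acts monomially on the 32760 cosets of `U₅(2)`, i.e. on the 196560 minimal vectors of the
complex Leech lattice.
-/

set_option autoImplicit false
set_option maxRecDepth 100000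

namespace Cfsg.Agent.Lib.Schur.Cover.SuzP

open Cfsg Cfsg.Agent.Lib.Schur.CoverP Cfsg.Agent.Lib.PermComp.Kron
open Cfsg.Agent.Lib.TC.G.Suz (K Rel rels)

theorem hcheck : ∀ x < 32760, chkAt 6 32760 7 K.inv tb RJ x = true := by
  intro x hx
  refine forall_of_chunks_rem (c := 32) (s := 1000) (r := 760) (by norm_num) ?_ ck32 (by norm_num) x hx
  intro i hi
  interval_cases i
  · exact ck0
  · exact ck1
  · exact ck2
  · exact ck3
  · exact ck4
  · exact ck5
  · exact ck6
  · exact ck7
  · exact ck8
  · exact ck9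
  · exact ck10
  · exact ck11
  · exact ck12
  · exact ck13
  · exact ck14
  · exact ck15
  · exact ck16
  · exact ck17
  · exact ck18
  · exact ck19
  · exact ck20
  · exact ck21
  · exact ck22
  · exact ck23
  · exact ck24
  · exact ck25
  · exact ck26
  · exact ck27
  · exact ck28
  · exact ck29
  · exact ck30
  · exact ck31

/-- The stem extension. -/
theorem exists_stem : ∃ (Γ : Type) (_ : Group Γ) (_ : Finite Γ) (σ : Γ →* PresentedGroup Rel),
    IsStemExtension σ ∧ Nat.card σ.ker = 6 := by
  have : NeZero 6 := ⟨by norm_num⟩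
  exact exists_stem_of_tables (M := 32760) (k := 6) (K := K) (rels := rels) Cfsg.Agent.Lib.TC.G.Suz.valid
    Cfsg.Agent.Lib.TC.G.Suz.hR Cfsg.Agent.Lib.TC.D.SuzChain.Main.simple_card.1 (by norm_num) (by norm_num)
    tb RJ rowsC hcheck (by decide)
    (fun l hl => rj_of_any ((by decide +kernel : ∀ l ∈ rels, RJ.any (fun t => t.1 == l) = true) l hl))
    (fun c hc => rj_of_any ((by decide +kernel : ∀ c < K.k, RJ.any (fun t => t.1 == [c, K.inv c]) = true) c hc))
    (by decide +kernel) (by decide +kernel) (by decide +kernel) (by decide +kernel)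

end Cfsg.Agent.Lib.Schur.Cover.SuzP
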